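import Cfsg.Agent.Lib.Geometric.SympEight.C6.Coords
import Cfsg.Agent.Lib.Forms.SympBridge
import Cfsg.Agent.Lib.ClassicalLinear.SympSimple

/-!
The centraliser of an involution in an overgroup inside `Sp_8`: everything, or it permutes five
anticommuting involutions on the fixed space.
-/

set_option autoImplicit false
set_option linter.unusedSectionVars false
set_option maxHeartbeats 800000

namespace CfsgLib.Geometric.SympEightC6

open scoped Matrix
open Matrix CfsgLib.Geometric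
open scoped commutatorElement

variable {F : Type*} [Field F]

local notation "M₈" => Matrix I8 I8 F
local notation "M₄" => Matrix I4 I4 F
local notation "BB" => Matrix (I4 ⊕ I4) (I4 ⊕ I4) F

/-- Coordinates diagonalising an involution and compatible with the adjoints. -/
structure Coord (X : Matrix I8 I8 F) where
  Φ : Matrix I8 I8 F ≃ₐ[F] Matrix (I4 ⊕ I4) (I4 ⊕ I4) F
  X_eq : Φ X = fromBlocks 1 0 0 (-1)
  adj_eq : ∀ {M : Matrix I8 I8 F} {A B C D : Matrix I4 I4 F}, Φ M = fromBlocks A B C D →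
    Φ (adj8 M) = fromBlocks (PauliFour.adj A) (PauliFour.adj C) (PauliFour.adj B) (PauliFour.adj D)

theorem exists_coord [Finite F] {X : M₈} (h : Inv8 X) (h2 : (2 : F) ≠ 0) : Nonempty (Coord X) := by
  obtain ⟨g, hg, hgX⟩ := h.exists_conj h2
  let c : M₈ ≃ₐ[F] M₈ :=
    { toFun := fun M => (g : M₈) * M * ((g⁻¹ : GL I8 F) : M₈)
      invFun := fun M => ((g⁻¹ : GL I8 F) : M₈) * M * (g : M₈)
      left_inv := fun M => by simp [mul_assoc, Units.inv_mul_cancel_left]
      right_inv := fun M => by simp [mul_assoc, Units.mul_inv_cancel_left]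
      map_mul' := fun M N => by simp [mul_assoc, Units.inv_mul_cancel_left]
      map_add' := fun M N => by rw [mul_add, add_mul]
      commutes' := fun r => by rw [← Algebra.commutes, mul_assoc, Units.mul_inv, mul_one] }
  have hc : ∀ M, c M = (g : M₈) * M * ((g⁻¹ : GL I8 F) : M₈) := fun M => rfl
  refine ⟨⟨c.trans re8, ?_, ?_⟩⟩
  · rw [AlgEquiv.trans_apply, hc, hgX, mul_assoc, Units.mul_inv, mul_one, re8_X0]
  · intro M A B C D hM
    rw [AlgEquiv.trans_apply] at hM ⊢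
    have e : c (adj8 M) = adj8 (c M) := by
      have hgi : adj8 ((g⁻¹ : GL I8 F) : M₈) = (g : M₈) := by rw [adj8_eq_inv (inv_mem hg), inv_inv]
      rw [hc, hc, adj8_mul, adj8_mul, adj8_eq_inv hg, hgi, mul_assoc]
    rw [e, re8_adj8 hM]

namespace Coord

variable {X : Matrix I8 I8 F} (co : Coord X)

theorem Φ_inj {M N : M₈} (h : co.Φ M = co.Φ N) : M = N := co.Φ.injective h

/-- Block diagonal elements. -/
def emb : GL I4 F × GL I4 F →* GL I8 F where
  toFun p :=
    { val := co.Φ.symm (fromBlocks (p.1 : M₄) 0 0 (p.2 : M₄))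
      inv := co.Φ.symm (fromBlocks ((p.1⁻¹ : GL I4 F) : M₄) 0 0 ((p.2⁻¹ : GL I4 F) : M₄))
      val_inv := by rw [← map_mul, fromBlocks_multiply]; simp
      inv_val := by rw [← map_mul, fromBlocks_multiply]; simp }
  map_one' := by ext : 1; simp
  map_mul' p q := by
    ext : 1
    show co.Φ.symm _ = co.Φ.symm _ * co.Φ.symm _
    rw [← map_mul, fromBlocks_multiply]
    simp

theorem Φ_emb (A D : GL I4 F) :
    co.Φ ((co.emb (A, D) : GL I8 F) : M₈) = fromBlocks (A : M₄) 0 0 (D : M₄) :=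
  co.Φ.apply_symm_apply _

theorem diag_of_commute (h2 : (2 : F) ≠ 0) {M : M₈} (h : M * X = X * M) :
    co.Φ M = fromBlocks (co.Φ M).toBlocks₁₁ 0 0 (co.Φ M).toBlocks₂₂ := by
  have e := congrArg co.Φ h
  rw [map_mul, map_mul, co.X_eq] at e
  set Y := co.Φ M
  rw [← fromBlocks_toBlocks Y, fromBlocks_multiply, fromBlocks_multiply] at e
  simp only [mul_one, mul_zero, zero_mul, one_mul, add_zero, zero_add, fromBlocks_inj, mul_neg,
    neg_mul] at e
  obtain ⟨-, e12, e21, -⟩ := e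
  have z : ∀ Z : M₄, -Z = Z → Z = 0 := fun Z hZ => by
    have : (2 : F) • Z = 0 := by rw [two_smul]; nth_rewrite 1 [← hZ]; rw [neg_add_cancel]
    exact (smul_eq_zero.1 this).resolve_left h2
  conv_lhs => rw [← fromBlocks_toBlocks Y]
  rw [z _ e12, z _ e21.symm]

theorem exists_emb (h2 : (2 : F) ≠ 0) {g : GL I8 F} (hg : g ∈ Cfsg.spGL 4 F)
    (h : (g : M₈) * X = X * (g : M₈)) :
    ∃ A D : GL I4 F, co.emb (A, D) = g ∧ A ∈ Cfsg.spGL 2 F ∧ D ∈ Cfsg.spGL 2 F := by
  have e1 := co.diag_of_commute h2 h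
  have e2 := co.adj_eq e1
  have e := congrArg co.Φ (adj8_mul_self hg)
  rw [map_mul, map_one, e2, e1, fromBlocks_multiply, ← fromBlocks_one] at e
  simp only [mul_zero, zero_mul, add_zero, zero_add, fromBlocks_inj] at e
  let A : GL I4 F := ⟨_, _, mul_eq_one_comm.1 e.1, e.1⟩
  let D : GL I4 F := ⟨_, _, mul_eq_one_comm.1 e.2.2.2, e.2.2.2⟩
  exact ⟨A, D, Units.ext (co.Φ_inj (by rw [co.Φ_emb]; exact e1.symm)),
    PauliFour.mem_spGL_of_adj (g := A) e.1, PauliFour.mem_spGL_of_adj (g := D) e.2.2.2⟩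

theorem emb_mem {A D : GL I4 F} (hA : A ∈ Cfsg.spGL 2 F) (hD : D ∈ Cfsg.spGL 2 F) :
    co.emb (A, D) ∈ Cfsg.spGL 4 F := by
  refine mem_spGL_of_adj8 (co.Φ_inj ?_)
  rw [map_mul, map_one, co.adj_eq (co.Φ_emb A D), co.Φ_emb, fromBlocks_multiply, ← fromBlocks_one]
  have hA' : PauliFour.adj (A : M₄) * (A : M₄) = 1 := by
    rw [PauliFour.adj_eq_inv_of_mem hA, Units.inv_mul]
  have hD' : PauliFour.adj (D : M₄) * (D : M₄) = 1 := by
    rw [PauliFour.adj_eq_inv_of_mem hD, Units.inv_mul]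
  simp [SympFour.adj_zero, hA', hD']

end Coord

/-- A subgroup normalised by `Sp_4` and containing a non-central element of it contains it. -/
theorem sp_le_of_normalised [Finite F] (h2 : (2 : F) ≠ 0) {L : Subgroup (GL I4 F)}
    (hn : ∀ g ∈ Cfsg.spGL 2 F, ∀ l ∈ L, g * l * g⁻¹ ∈ L) {x : GL I4 F} (hxL : x ∈ L)
    (hxS : x ∈ Cfsg.spGL 2 F) (h1 : (x : M₄) ≠ 1) (h1' : (x : M₄) ≠ -1) : Cfsg.spGL 2 F ≤ L := by
  classical
  haveI := Fintype.ofFinite F
  set φ := Forms.spToGL 2 F with hφ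
  set L' := L.comap φ with hL'
  haveI : L'.Normal := ⟨fun a ha g => by
    show φ (g * a * g⁻¹) ∈ L
    rw [map_mul, map_mul, map_inv]
    exact hn _ (by rw [← Forms.spToGL_range]; exact ⟨g, rfl⟩) _ ha⟩
  obtain ⟨x', hx'⟩ : x ∈ φ.range := by rw [hφ, Forms.spToGL_range]; exact hxS
  set Z := Subgroup.center (Matrix.symplecticGroup (Fin 2) F)
  haveI hsimple : IsSimpleGroup (Cfsg.PSp 2 F) :=
    ClassicalLinear.isSimpleGroup_psp le_rfl (Or.inr (Or.inl h2))
  have htop : L'.map (QuotientGroup.mk' Z) = ⊤ := by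
    have hnorm : (L'.map (QuotientGroup.mk' Z)).Normal :=
      Subgroup.Normal.map inferInstance _ (QuotientGroup.mk'_surjective Z)
    rcases hsimple.eq_bot_or_eq_top_of_normal (L'.map (QuotientGroup.mk' Z)) hnorm with e | e
    · exfalso
      have hm : (QuotientGroup.mk' Z) x' ∈ (⊥ : Subgroup (Cfsg.PSp 2 F)) :=
        e ▸ Subgroup.mem_map_of_mem _ (show x' ∈ L' by show φ x' ∈ L; rw [hx']; exact hxL)
      rw [Subgroup.mem_bot] at hm
      have hz : x' ∈ Z := (QuotientGroup.eq_one_iff x').1 hm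
      have hxm : (x : M₄) = (x' : M₄) := by rw [← hx']; rfl
      rcases (ClassicalLinear.mem_center_sp_iff (by norm_num)).1 hz with h | h
      · exact h1 (hxm.trans h)
      · exact h1' (hxm.trans h)
    · exact e
  have hperf : commutator (Matrix.symplecticGroup (Fin 2) F) = ⊤ :=
    ClassicalLinear.commutator_sp_eq_top (Or.inr (Or.inl ⟨le_rfl, h2⟩))
  have hall : ∀ g : Matrix.symplecticGroup (Fin 2) F, ∃ l ∈ L', ∃ z ∈ Z, g = l * z := by
    intro g
    obtain ⟨l, hl, e⟩ : (QuotientGroup.mk' Z) g ∈ L'.map (QuotientGroup.mk' Z) := htop ▸ Subgroup.mem_top _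
    exact ⟨l, hl, l⁻¹ * g, QuotientGroup.eq.1 e, by group⟩
  have htop' : L' = ⊤ := by
    rw [eq_top_iff, ← hperf, commutator_def, Subgroup.commutator_le]
    intro a _ b _
    obtain ⟨l, hl, z, hz, rfl⟩ := hall a
    obtain ⟨l', hl', z', hz', rfl⟩ := hall b
    have hzc := Subgroup.mem_center_iff.1 hz
    have hzc' := Subgroup.mem_center_iff.1 hz'
    have e : ⁅l * z, l' * z'⁆ = ⁅l, l'⁆ := by
      rw [commutatorElement_def, commutatorElement_def]
      calc l * z * (l' * z') * (l * z)⁻¹ * (l' * z')⁻¹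
          = l * (z * (l' * z') * z⁻¹) * l⁻¹ * (z'⁻¹ * l'⁻¹) := by group
        _ = l * (l' * z') * l⁻¹ * (z'⁻¹ * l'⁻¹) := by rw [← hzc (l' * z'), mul_inv_cancel_right]
        _ = l * l' * (z' * l⁻¹ * z'⁻¹) * l'⁻¹ := by group
        _ = l * l' * l⁻¹ * l'⁻¹ := by rw [← hzc' l⁻¹, mul_inv_cancel_right]
    rw [e]
    exact mul_mem (mul_mem (mul_mem hl hl') (inv_mem hl)) (inv_mem hl')
  intro g hg
  obtain ⟨g', rfl⟩ : g ∈ φ.range := by rw [hφ, Forms.spToGL_range]; exact hg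
  exact (show g' ∈ L' by rw [htop']; exact Subgroup.mem_top _)

/-- The hypotheses at an involution. -/
structure Site (M : Subgroup (GL I8 F)) (X : Matrix I8 I8 F) (Γ : Fin 5 → Matrix I8 I8 F) : Prop where
  le : M ≤ Cfsg.spGL 4 F
  two : (2 : F) ≠ 0
  sq : X * X = 1
  adj : adj8 X = X
  gsq : ∀ i, Γ i * Γ i = 1
  gadj : ∀ i, adj8 (Γ i) = Γ i
  gcomm : ∀ i, Γ i * X = X * Γ i
  ganti : ∀ i j, i ≠ j → Γ i * Γ j = -(Γ j * Γ i)
  swap : ∃ U ∈ M, (U : Matrix I8 I8 F) * X = -(X * (U : Matrix I8 I8 F))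
  gmem : ∀ i, ∃ g ∈ M, (g : Matrix I8 I8 F) = Γ i
  perm : ∀ i j k l, i ≠ j → k ≠ l →
    ∃ g ∈ M, (g : Matrix I8 I8 F) = (2 : F)⁻¹ • ((Γ i - Γ j) * (Γ k - Γ l))
  eich : ∃ g ∈ M, (g : Matrix I8 I8 F) = (2 : F)⁻¹ • (1 + X + Γ 0 - X * Γ 0)
  moved : ∃ g ∈ M, (g : Matrix I8 I8 F) * X ≠ X * (g : Matrix I8 I8 F) ∧
    (g : Matrix I8 I8 F) * X ≠ -(X * (g : Matrix I8 I8 F))

/-- The centraliser permutes the five involutions on the fixed space. -/
def SmallAt (M : Subgroup (GL I8 F)) (X : Matrix I8 I8 F) (Γ : Fin 5 → Matrix I8 I8 F) : Prop :=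
  ∀ g ∈ M, (g : M₈) * X = X * (g : M₈) → ∀ i, ∃ (j : Fin 5) (σ : F), (σ = 1 ∨ σ = -1) ∧
    (g : M₈) * Γ i * (1 + X) = σ • (Γ j * ((g : M₈) * (1 + X)))

variable {M : Subgroup (GL I8 F)} {X : Matrix I8 I8 F} {Γ : Fin 5 → Matrix I8 I8 F}

/-- The dichotomy at an involution. -/
theorem Site.dichotomy [Fintype F] (S : Site M X Γ) {p : ℕ} (hp : p.Prime)
    (hcard : Fintype.card F = p) : Cfsg.spGL 4 F ≤ M ∨ SmallAt M X Γ := by
  classical
  obtain ⟨U, hUM, hU⟩ := S.swap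
  have hinv : Inv8 X := ⟨S.sq, S.adj, U, hU⟩
  obtain ⟨co⟩ := exists_coord hinv S.two
  set γ : Fin 5 → M₄ := fun i => (co.Φ (Γ i)).toBlocks₁₁ with hγ
  set δ : Fin 5 → M₄ := fun i => (co.Φ (Γ i)).toBlocks₂₂
  have hΓ : ∀ i, co.Φ (Γ i) = fromBlocks (γ i) 0 0 (δ i) := fun i =>
    co.diag_of_commute S.two (S.gcomm i)
  let K : Subgroup (GL I4 F) := ((M.comap co.emb).map (MonoidHom.fst _ _)) ⊓ Cfsg.spGL 2 F
  have hK : ∀ {g : GL I8 F}, g ∈ M → (g : M₈) * X = X * (g : M₈) →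
      ∃ A ∈ K, (A : M₄) = (co.Φ (g : M₈)).toBlocks₁₁ := by
    intro g hg hgX
    obtain ⟨A, D, rfl, hA, -⟩ := co.exists_emb S.two (S.le hg) hgX
    exact ⟨A, ⟨⟨(A, D), hg, rfl⟩, hA⟩, by rw [co.Φ_emb, toBlocks_fromBlocks₁₁]⟩
  have hfr : SympFour.Frame5 γ K := by
    have e : ∀ a b, γ a * γ b = (co.Φ (Γ a * Γ b)).toBlocks₁₁ := fun a b => by
      rw [map_mul, hΓ, hΓ, fromBlocks_multiply, toBlocks_fromBlocks₁₁]; simp
    refine ⟨⟨fun i => ?_, fun i j hij => ?_⟩, fun i => ?_, inf_le_right, S.two, fun i => ?_,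
      fun i j k l hij hkl => ?_⟩
    · rw [e, S.gsq, map_one, ← fromBlocks_one, toBlocks_fromBlocks₁₁]
    · rw [e, e, S.ganti i j hij, map_neg]; rfl
    · have h := co.adj_eq (hΓ i)
      rw [S.gadj, hΓ] at h
      exact ((fromBlocks_inj.1 h).1).symm
    · obtain ⟨g, hg, hgΓ⟩ := S.gmem i
      obtain ⟨A, hA, hA'⟩ := hK hg (by rw [hgΓ]; exact S.gcomm i)
      exact ⟨A, hA, by rw [hA', hgΓ]⟩
    · obtain ⟨g, hg, hgΓ⟩ := S.perm i j k l hij hkl
      obtain ⟨A, hA, hA'⟩ := hK hg (by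
        have hc : ∀ a b, Commute (Γ a - Γ b) X := fun a b =>
          (show Commute (Γ a) X from S.gcomm a).sub_left (show Commute (Γ b) X from S.gcomm b)
        rw [hgΓ, smul_mul_assoc, mul_smul_comm, ((hc i j).mul_left (hc k l)).eq])
      refine ⟨A, hA, ?_⟩
      rw [hA', hgΓ, map_smul, map_mul, map_sub, map_sub, hΓ, hΓ, hΓ, hΓ]
      simp only [sub_eq_add_neg, fromBlocks_neg, fromBlocks_add, fromBlocks_multiply, fromBlocks_smul,
        toBlocks_fromBlocks₁₁, neg_zero, add_zero, mul_zero]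
  rcases hfr.rigid hp hcard with hbig | hsmall
  swap
  · right
    intro g hg hgX i
    obtain ⟨A, D, rfl, hA, -⟩ := co.exists_emb S.two (S.le hg) hgX
    obtain ⟨j, σ, hσ, e⟩ := hsmall A ⟨⟨(A, D), hg, rfl⟩, hA⟩ i
    refine ⟨j, σ, hσ, co.Φ_inj ?_⟩
    rw [map_mul, map_mul, map_smul, map_mul, map_mul, map_add, map_one, co.X_eq, co.Φ_emb, hΓ, hΓ,
      ← fromBlocks_one, fromBlocks_add, fromBlocks_multiply, fromBlocks_multiply, fromBlocks_multiply,
      fromBlocks_multiply, fromBlocks_smul]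
    simp only [mul_zero, zero_mul, add_zero, zero_add, add_neg_cancel, smul_zero, mul_add, add_mul, mul_one,
      smul_add, e, smul_mul_assoc]
  left
  -- the blocks of the swapping element
  obtain ⟨U1, U2, hUΦ⟩ : ∃ U1 U2, co.Φ (U : M₈) = fromBlocks 0 U1 U2 0 := by
    refine ⟨(co.Φ (U : M₈)).toBlocks₁₂, (co.Φ (U : M₈)).toBlocks₂₁, ?_⟩
    have e := congrArg co.Φ hU
    rw [map_neg, map_mul, map_mul, co.X_eq] at e
    set Y := co.Φ (U : M₈)
    rw [← fromBlocks_toBlocks Y, fromBlocks_multiply, fromBlocks_multiply, fromBlocks_neg] at e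
    simp only [mul_one, mul_zero, zero_mul, one_mul, add_zero, zero_add, fromBlocks_inj, mul_neg,
      neg_mul, neg_neg] at e
    obtain ⟨e11, -, -, e22⟩ := e
    have z : ∀ Z : M₄, -Z = Z → Z = 0 := fun Z hZ => by
      have : (2 : F) • Z = 0 := by rw [two_smul]; nth_rewrite 1 [← hZ]; rw [neg_add_cancel]
      exact (smul_eq_zero.1 this).resolve_left S.two
    conv_lhs => rw [← fromBlocks_toBlocks Y]
    rw [z _ e11.symm, z _ e22]
  have hUadj : co.Φ ((U⁻¹ : GL I8 F) : M₈) =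
      fromBlocks 0 (PauliFour.adj U2) (PauliFour.adj U1) 0 := by
    rw [← adj8_eq_inv (S.le hUM), co.adj_eq hUΦ]
    simp [SympFour.adj_zero]
  have hu := congrArg co.Φ (Units.mul_inv U)
  rw [map_mul, hUΦ, hUadj, fromBlocks_multiply, map_one, ← fromBlocks_one] at hu
  simp only [mul_zero, zero_mul, add_zero, zero_add, fromBlocks_inj] at hu
  let u1 : GL I4 F := ⟨U1, PauliFour.adj U1, hu.1, mul_eq_one_comm.1 hu.1⟩
  let u2 : GL I4 F := ⟨U2, PauliFour.adj U2, hu.2.2.2, mul_eq_one_comm.1 hu.2.2.2⟩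
  have hu2S : u2 ∈ Cfsg.spGL 2 F := PauliFour.mem_spGL_of_adj (g := u2) u2.inv_val
  have hconj : ∀ A D : GL I4 F, U * co.emb (A, D) * U⁻¹ = co.emb (u1 * D * u1⁻¹, u2 * A * u2⁻¹) := by
    intro A D
    refine Units.ext (co.Φ_inj ?_)
    rw [Units.val_mul, Units.val_mul, map_mul, map_mul, hUΦ, hUadj, co.Φ_emb, co.Φ_emb, fromBlocks_multiply,
      fromBlocks_multiply]
    simp [u1, u2]
  have hKbottom : ∀ D ∈ Cfsg.spGL 2 F, ∃ A, co.emb (A, D) ∈ M := by
    intro D hD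
    obtain ⟨⟨⟨A', D'⟩, hm, hA'⟩, -⟩ := hbig (mul_mem (mul_mem (inv_mem hu2S) hD) hu2S)
    have hA'' : A' = u2⁻¹ * D * u2 := hA'
    refine ⟨u1 * D' * u1⁻¹, ?_⟩
    have := mul_mem (mul_mem hUM hm) (inv_mem hUM)
    rwa [hconj, hA'', show u2 * (u2⁻¹ * D * u2) * u2⁻¹ = D by group] at this
  set L := M.comap (co.emb.comp (MonoidHom.inr _ _)) with hL
  have hLn : ∀ g ∈ Cfsg.spGL 2 F, ∀ l ∈ L, g * l * g⁻¹ ∈ L := by
    intro g hg l hl
    obtain ⟨A, hA⟩ := hKbottom g hg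
    have := mul_mem (mul_mem hA (show co.emb (1, l) ∈ M from hl)) (inv_mem hA)
    rw [← map_mul, ← map_inv, ← map_mul] at this
    show co.emb (1, g * l * g⁻¹) ∈ M
    simpa using this
  -- a one-sided element
  obtain ⟨E, hE, hEΦ⟩ := S.eich
  have hEΦ' : co.Φ (E : M₈) = fromBlocks 1 0 0 (δ 0) := by
    rw [hEΦ, map_smul, map_sub, map_add, map_add, map_one, map_mul, co.X_eq, hΓ, fromBlocks_multiply,
      ← fromBlocks_one]
    simp only [sub_eq_add_neg, fromBlocks_neg, fromBlocks_add, fromBlocks_smul, mul_zero, zero_mul, one_mul,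
      add_zero, zero_add, neg_zero, smul_zero, neg_mul, neg_neg, fromBlocks_inj, and_true, true_and]
    constructor
    · rw [show (1 : M₄) + 1 + γ 0 + -γ 0 = (2 : F) • 1 by rw [two_smul]; abel, smul_smul,
        inv_mul_cancel₀ S.two, one_smul]
    · rw [show (1 : M₄) + -1 + δ 0 + δ 0 = (2 : F) • δ 0 by rw [two_smul]; abel, smul_smul,
        inv_mul_cancel₀ S.two, one_smul]
  have hdd : ∀ a b, δ a * δ b = (co.Φ (Γ a * Γ b)).toBlocks₂₂ := fun a b => by
    rw [map_mul, hΓ, hΓ, fromBlocks_multiply, toBlocks_fromBlocks₂₂]; simp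
  have hdd0 : δ 0 * δ 0 = 1 := by
    rw [hdd, S.gsq, map_one, ← fromBlocks_one, toBlocks_fromBlocks₂₂]
  let d0 : GL I4 F := ⟨δ 0, δ 0, hdd0, hdd0⟩
  have hd0S : d0 ∈ Cfsg.spGL 2 F := by
    refine PauliFour.mem_spGL_of_adj (g := d0) ?_
    have h := co.adj_eq (hΓ 0)
    rw [S.gadj, hΓ] at h
    show PauliFour.adj (δ 0) * δ 0 = 1
    rw [← (fromBlocks_inj.1 h).2.2.2, hdd0]
  have hd0L : d0 ∈ L := by
    show co.emb (1, d0) ∈ M
    convert hE using 1
    exact Units.ext (co.Φ_inj (by rw [co.Φ_emb, hEΦ']; rfl))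
  have hd01 : ∀ s : F, δ 0 ≠ s • 1 := by
    intro s hs
    have h1 : δ 1 * δ 1 = 1 := by rw [hdd, S.gsq, map_one, ← fromBlocks_one, toBlocks_fromBlocks₂₂]
    have h01 : δ 0 * δ 1 = -(δ 1 * δ 0) := by
      rw [hdd, hdd, S.ganti 0 1 (by decide), map_neg]; rfl
    rw [hs, smul_mul_assoc, one_mul, mul_smul_comm, mul_one] at h01
    have h2 : (2 * s) • δ 1 = 0 := by
      rw [mul_smul, two_smul]; nth_rewrite 1 [h01]; rw [neg_add_cancel]
    rcases smul_eq_zero.1 h2 with h | h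
    · have hs0 : s = 0 := (mul_eq_zero.1 h).resolve_left S.two
      rw [hs0, zero_smul] at hs
      rw [hs, zero_mul] at hdd0
      exact zero_ne_one hdd0
    · rw [h, zero_mul] at h1
      exact zero_ne_one h1
  have hbottom : Cfsg.spGL 2 F ≤ L :=
    sp_le_of_normalised S.two hLn hd0L hd0S (fun h => hd01 1 (by rw [one_smul]; exact h))
      (fun h => hd01 (-1) (by rw [neg_one_smul]; exact h))
  have hblocks : ∀ A ∈ Cfsg.spGL 2 F, ∀ D ∈ Cfsg.spGL 2 F, co.emb (A, D) ∈ M := by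
    intro A hA D hD
    obtain ⟨⟨⟨A', D'⟩, hm, hA'⟩, -⟩ := hbig hA
    have hA'' : A' = A := hA'
    subst hA''
    have hD'S : D' ∈ Cfsg.spGL 2 F := by
      have hX' := congrArg co.Φ (adj8_mul_self (S.le hm))
      rw [map_mul, map_one, co.adj_eq (co.Φ_emb A' D'), co.Φ_emb, fromBlocks_multiply, ← fromBlocks_one] at hX'
      simp only [mul_zero, zero_mul, add_zero, zero_add, fromBlocks_inj] at hX'
      exact PauliFour.mem_spGL_of_adj hX'.2.2.2
    have := mul_mem (show co.emb (A', D') ∈ M from hm)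
      (show co.emb (1, D'⁻¹ * D) ∈ M from hbottom (mul_mem (inv_mem hD'S) hD))
    rw [← map_mul] at this
    simpa using this
  -- the stabiliser of the pair of eigenspaces
  have hf := SmallDim.isSymplecticForm_sympForm (m := 4) (F := F)
  let Dd : Fin 2 → Submodule F (I8 → F) := ![plus X, plus (-X)]
  have hinv' : Inv8 (-X) := ⟨by rw [neg_mul_neg, S.sq], by rw [adj8_neg, S.adj],
    U, by rw [Matrix.mul_neg, Matrix.neg_mul, hU]⟩
  have hinl : ∀ v, v ∈ plus (-X) ↔ X *ᵥ v = -v := fun v => by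
    rw [mem_plus, neg_mulVec, neg_eq_iff_eq_neg]
  have hdec : Cfsg.Geo.IsNondegenerateMDecomposition (Cfsg.sympForm 4 F) 4 Dd := by
    have hfr : ∀ i, Module.finrank F (Dd i) = 4 := fun i => by
      fin_cases i
      · exact hinv.finrank_plus S.two
      · exact hinv'.finrank_plus S.two
    have hint : DirectSum.IsInternal Dd := by
      refine (DirectSum.isInternal_submodule_iff_isCompl Dd (i := 0) (j := 1) (by decide) ?_).2 ⟨?_, ?_⟩
      · ext k; fin_cases k <;> simp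
      · rw [disjoint_iff, Submodule.eq_bot_iff]
        intro v hv
        obtain ⟨h1, h3⟩ := Submodule.mem_inf.1 hv
        change v ∈ plus X at h1
        change v ∈ plus (-X) at h3
        rw [mem_plus] at h1
        rw [hinl, h1] at h3
        have e : (2 : F) • v = 0 := by rw [two_smul]; nth_rewrite 1 [h3]; rw [neg_add_cancel]
        exact (smul_eq_zero.1 e).resolve_left S.two
      · rw [codisjoint_iff, eq_top_iff]
        intro v _
        obtain ⟨a, b, ha, hb, rfl⟩ := hinv.half S.two v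
        exact Submodule.add_mem_sup (mem_plus.2 ha) ((hinl b).2 hb)
    refine ⟨⟨by norm_num, by norm_num, hfr, hint.submodule_iSupIndep, hint.submodule_iSup_eq_top⟩,
      fun i => ?_, fun i j hij => ?_⟩
    · fin_cases i
      · exact hinv.nondegenerate S.two
      · exact hinv'.nondegenerate S.two
    · intro x hx y hy
      fin_cases i <;> fin_cases j
      · exact absurd rfl hij
      · exact hinv.orth S.two (mem_plus.1 hx) ((hinl y).1 hy)
      · exact (Symp.eq_zero_comm hf).mp (hinv.orth S.two (mem_plus.1 hy) ((hinl x).1 hx))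
      · exact absurd rfl hij
  have hmax := Symp.decompStab_isMaximalIn hf hdec (k := 4) (by simp)
  -- elements of the stabiliser
  have hstab : ∀ g ∈ Cfsg.Geo.decompositionStabilizer Dd ⊓ Cfsg.spGL 4 F,
      (g : M₈) * X = X * (g : M₈) ∨ (g : M₈) * X = -(X * (g : M₈)) := by
    rintro g ⟨⟨s, hs⟩, -⟩
    have hmap : ∀ i v, v ∈ Dd i → (g : M₈) *ᵥ v ∈ Dd (s i) := fun i v hv =>
      hs i ▸ Submodule.mem_map_of_mem hv
    have hs2 : (s 0 = 0 ∧ s 1 = 1) ∨ (s 0 = 1 ∧ s 1 = 0) := by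
      revert s; intro s; revert s
      intro s _ _
      rcases (show ∀ x : Fin 2, x = 0 ∨ x = 1 by decide) (s 0) with a | a <;>
        rcases (show ∀ x : Fin 2, x = 0 ∨ x = 1 by decide) (s 1) with b | b
      · exact absurd (s.injective (a.trans b.symm)) (by decide)
      · exact Or.inl ⟨a, b⟩
      · exact Or.inr ⟨a, b⟩
      · exact absurd (s.injective (a.trans b.symm)) (by decide)
    rcases hs2 with ⟨s0, s1⟩ | ⟨s0, s1⟩
    · left
      refine Matrix.ext_of_mulVec_single fun j => ?_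
      obtain ⟨a, b, ha, hb, hab⟩ := hinv.half S.two (Pi.single j 1)
      have a' := hmap 0 a (mem_plus.2 ha)
      have b' := hmap 1 b ((hinl b).2 hb)
      rw [s0] at a'
      rw [s1] at b'
      change _ ∈ plus X at a'
      change _ ∈ plus (-X) at b'
      rw [mem_plus] at a'
      rw [hinl] at b'
      rw [← hab, ← mulVec_mulVec, ← mulVec_mulVec, mulVec_add, ha, hb, mulVec_add, mulVec_add, mulVec_add,
        a', b', mulVec_neg]
    · right
      refine Matrix.ext_of_mulVec_single fun j => ?_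
      obtain ⟨a, b, ha, hb, hab⟩ := hinv.half S.two (Pi.single j 1)
      have a' := hmap 0 a (mem_plus.2 ha)
      have b' := hmap 1 b ((hinl b).2 hb)
      rw [s0] at a'
      rw [s1] at b'
      change _ ∈ plus (-X) at a'
      change _ ∈ plus X at b'
      rw [hinl] at a'
      rw [mem_plus] at b'
      rw [← hab, neg_mulVec, ← mulVec_mulVec, ← mulVec_mulVec, mulVec_add, ha, hb, mulVec_add, mulVec_add,
        mulVec_add, a', b', mulVec_neg, neg_add, neg_neg]
  have hcle : ∀ g ∈ Cfsg.spGL 4 F, (g : M₈) * X = X * (g : M₈) → g ∈ M := by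
    intro g hg hgX
    obtain ⟨A, D, rfl, hA, hD⟩ := co.exists_emb S.two hg hgX
    exact hblocks A hA D hD
  have hle : Cfsg.Geo.decompositionStabilizer Dd ⊓ Cfsg.spGL 4 F ≤ M := by
    intro g hg
    rcases hstab g hg with h | h
    · exact hcle g hg.2 h
    · refine (M.mul_mem_cancel_right hUM).1 (hcle _ (mul_mem hg.2 (S.le hUM)) ?_)
      rw [Units.val_mul, mul_assoc, hU, Matrix.mul_neg, ← mul_assoc, h, Matrix.neg_mul, neg_neg, mul_assoc]
  obtain ⟨n, hn, hn1, hn2⟩ := S.moved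
  rcases hmax.2 M hle S.le with e | e
  · exfalso
    rcases hstab n (e ▸ hn) with h | h
    exacts [hn1 h, hn2 h]
  · exact e ▸ le_rfl

end CfsgLib.Geometric.SympEightC6
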