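import Cfsg.Agent.Lib.Geometric.SympDecomp
import Cfsg.Agent.Lib.Geometric.SympFour.Rigid
import Cfsg.Agent.Lib.SmallDim.SympBasic

/-!
The adjoint on `Sp_8`, and coordinates in which a given involutory isometry with an anticommuting
partner is diagonal.
-/

set_option autoImplicit false
set_option linter.unusedSectionVars false

namespace CfsgLib.Geometric.SympEightC6

open scoped Matrix
open Matrix CfsgLib.Geometric

variable {F : Type*} [Field F]

/-- The index set of `Sp_8`. -/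
abbrev I8 := Fin 4 ⊕ Fin 4

/-- The index set of `Sp_4`. -/
abbrev I4 := Fin 2 ⊕ Fin 2

local notation "M₈" => Matrix I8 I8 F
local notation "M₄" => Matrix I4 I4 F
local notation "J₈" => Matrix.J (Fin 4) F

theorem mem_spGL_iff {g : GL I8 F} :
    g ∈ Cfsg.spGL 4 F ↔ (g : M₈)ᵀ * J₈ * (g : M₈) = J₈ := by
  have hg : ∀ u v : I8 → F, Cfsg.sympForm 4 F ((g : M₈) *ᵥ u) ((g : M₈) *ᵥ v) =
      u ⬝ᵥ (((g : M₈)ᵀ * J₈ * (g : M₈)) *ᵥ v) := fun u v => by
    simp only [Cfsg.sympForm]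
    rw [← Matrix.mulVec_mulVec, ← Matrix.mulVec_mulVec, Matrix.dotProduct_mulVec (A := (g : M₈)ᵀ),
      Matrix.vecMul_transpose]
  constructor
  · intro h
    ext i j
    have h1 : Cfsg.sympForm 4 F ((g : M₈) *ᵥ Pi.single i 1) ((g : M₈) *ᵥ Pi.single j 1) =
        Cfsg.sympForm 4 F (Pi.single i 1) (Pi.single j 1) := h _ _
    rw [hg, Cfsg.sympForm] at h1
    simpa using h1
  · intro h u v
    show Cfsg.sympForm 4 F ((g : M₈) *ᵥ u) ((g : M₈) *ᵥ v) = _
    rw [hg, h]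
    rfl

/-- The adjoint for the symplectic form. -/
def adj8 (M : M₈) : M₈ := -(J₈ * Mᵀ * J₈)

theorem adj8_mul (M N : M₈) : adj8 (M * N) = adj8 N * adj8 M := by
  simp only [adj8, Matrix.transpose_mul, neg_mul_neg]
  calc -(J₈ * (Nᵀ * Mᵀ) * J₈) = J₈ * Nᵀ * (J₈ * J₈) * Mᵀ * J₈ := by
        rw [Matrix.J_squared]; simp [mul_assoc]
    _ = _ := by simp [mul_assoc]

theorem adj8_one : adj8 (1 : M₈) = 1 := by simp [adj8, Matrix.J_squared]

theorem adj8_smul (c : F) (M : M₈) : adj8 (c • M) = c • adj8 M := by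
  simp [adj8, Matrix.transpose_smul]

theorem adj8_add (M N : M₈) : adj8 (M + N) = adj8 M + adj8 N := by
  simp only [adj8, Matrix.transpose_add, Matrix.mul_add, Matrix.add_mul, neg_add]

theorem adj8_neg (M : M₈) : adj8 (-M) = -adj8 M := by
  simp [adj8]

theorem adj8_sub (M N : M₈) : adj8 (M - N) = adj8 M - adj8 N := by
  rw [sub_eq_add_neg, adj8_add, adj8_neg, ← sub_eq_add_neg]

theorem adj8_mul_self {g : GL I8 F} (h : g ∈ Cfsg.spGL 4 F) : adj8 (g : M₈) * (g : M₈) = 1 := by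
  rw [adj8, Matrix.neg_mul, mul_assoc, mul_assoc, ← mul_assoc _ᵀ, mem_spGL_iff.1 h, Matrix.J_squared,
    neg_neg]

theorem mem_spGL_of_adj8 {g : GL I8 F} (h : adj8 (g : M₈) * (g : M₈) = 1) : g ∈ Cfsg.spGL 4 F := by
  rw [mem_spGL_iff]
  calc (g : M₈)ᵀ * J₈ * g = -(J₈ * J₈) * ((g : M₈)ᵀ * J₈ * g) := by
        rw [Matrix.J_squared, neg_neg, one_mul]
    _ = J₈ * (adj8 (g : M₈) * g) := by simp [adj8, mul_assoc]
    _ = J₈ := by rw [h, mul_one]

theorem adj8_eq_inv {g : GL I8 F} (h : g ∈ Cfsg.spGL 4 F) : adj8 (g : M₈) = ((g⁻¹ : GL I8 F) : M₈) := by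
  calc adj8 (g : M₈) = adj8 (g : M₈) * g * ((g⁻¹ : GL I8 F) : M₈) := by
        rw [mul_assoc, Units.mul_inv, mul_one]
    _ = _ := by rw [adj8_mul_self h, one_mul]

/-- The two halves of the index set. -/
def e88 : I8 ≃ I4 ⊕ I4 where
  toFun
    | .inl i => if h : i.val < 2 then .inl (.inl ⟨i.val, h⟩) else .inr (.inl ⟨i.val - 2, by omega⟩)
    | .inr i => if h : i.val < 2 then .inl (.inr ⟨i.val, h⟩) else .inr (.inr ⟨i.val - 2, by omega⟩)
  invFun
    | .inl (.inl a) => .inl ⟨a.val, by omega⟩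
    | .inl (.inr a) => .inr ⟨a.val, by omega⟩
    | .inr (.inl a) => .inl ⟨a.val + 2, by omega⟩
    | .inr (.inr a) => .inr ⟨a.val + 2, by omega⟩
  left_inv := by decide
  right_inv := by decide

/-- Reindexing as an algebra equivalence. -/
def re8 : M₈ ≃ₐ[F] Matrix (I4 ⊕ I4) (I4 ⊕ I4) F := Matrix.reindexAlgEquiv F F e88

theorem re8_J : re8 (J₈ : M₈) = fromBlocks (Matrix.J (Fin 2) F) 0 0 (Matrix.J (Fin 2) F) := by
  ext i j
  rcases i with (i | i) | (i | i) <;> rcases j with (j | j) | (j | j) <;> fin_cases i <;> fin_cases j <;>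
    simp [re8, e88, Matrix.J, fromBlocks, Matrix.reindexAlgEquiv, Matrix.one_apply]

theorem re8_transpose (M : M₈) : re8 Mᵀ = (re8 M)ᵀ := rfl

theorem re8_adj8 {M : M₈} {A B C D : M₄} (h : re8 M = fromBlocks A B C D) :
    re8 (adj8 M) = fromBlocks (PauliFour.adj A) (PauliFour.adj C) (PauliFour.adj B) (PauliFour.adj D) := by
  rw [adj8, map_neg, map_mul, map_mul, re8_J, re8_transpose, h, fromBlocks_transpose, fromBlocks_multiply,
    fromBlocks_multiply, fromBlocks_neg]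
  simp [PauliFour.adj]

/-- The standard involution. -/
def X0 : M₈ := re8.symm (fromBlocks 1 0 0 (-1))

theorem re8_X0 : re8 (X0 : M₈) = fromBlocks 1 0 0 (-1) := re8.apply_symm_apply _

theorem X0_sq : (X0 : M₈) * X0 = 1 := by
  apply re8.injective
  rw [map_mul, map_one, re8_X0, fromBlocks_multiply, ← fromBlocks_one]
  simp

theorem adj8_X0 : adj8 (X0 : M₈) = X0 := by
  apply re8.injective
  rw [re8_adj8 re8_X0, re8_X0]
  simp [PauliFour.adj, Matrix.J_squared]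

/-- An involutory isometry with an anticommuting invertible matrix. -/
structure Inv8 (X : Matrix I8 I8 F) : Prop where
  sq : X * X = 1
  adj : adj8 X = X
  anti : ∃ U : GL I8 F, (U : Matrix I8 I8 F) * X = -(X * (U : Matrix I8 I8 F))

theorem inv8_X0 : Inv8 (X0 : M₈) := by
  refine ⟨X0_sq, adj8_X0, ?_⟩
  have e : (fromBlocks 0 1 1 0 : Matrix (I4 ⊕ I4) (I4 ⊕ I4) F) * fromBlocks 0 1 1 0 = 1 := by
    rw [fromBlocks_multiply, ← fromBlocks_one]; simp
  have e' : re8.symm (fromBlocks 0 1 1 0 : Matrix (I4 ⊕ I4) (I4 ⊕ I4) F) * re8.symm (fromBlocks 0 1 1 0) = 1 := by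
    rw [← map_mul, e, map_one]
  refine ⟨⟨_, _, e', e'⟩, re8.injective ?_⟩
  show re8 (re8.symm _ * X0) = re8 (-(X0 * re8.symm _))
  rw [map_neg, map_mul, map_mul, re8_X0, re8.apply_symm_apply, fromBlocks_multiply, fromBlocks_multiply,
    fromBlocks_neg]
  simp

/-- The fixed space. -/
def plus (X : Matrix I8 I8 F) : Submodule F (I8 → F) := LinearMap.ker (Matrix.toLin' (X - 1))

theorem mem_plus {X : M₈} {v : I8 → F} : v ∈ plus X ↔ X *ᵥ v = v := by
  rw [plus, LinearMap.mem_ker, Matrix.toLin'_apply, Matrix.sub_mulVec, one_mulVec, sub_eq_zero]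

theorem sympForm_adj8 (M : M₈) (u v : I8 → F) :
    Cfsg.sympForm 4 F (M *ᵥ u) v = Cfsg.sympForm 4 F u (adj8 M *ᵥ v) := by
  simp only [Cfsg.sympForm, Matrix.mulVec_mulVec]
  rw [dotProduct_comm, Matrix.dotProduct_mulVec, ← Matrix.mulVec_transpose, dotProduct_comm,
    Matrix.mulVec_mulVec]
  congr 2
  rw [adj8, Matrix.mul_neg, ← mul_assoc, ← mul_assoc, Matrix.J_squared, neg_one_mul, neg_mul, neg_neg]

theorem Inv8.orth {X : M₈} (h : Inv8 X) (h2 : (2 : F) ≠ 0) {u v : I8 → F} (hu : X *ᵥ u = u)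
    (hv : X *ᵥ v = -v) : Cfsg.sympForm 4 F u v = 0 := by
  have e := sympForm_adj8 X u v
  have hf := SmallDim.isSymplecticForm_sympForm (m := 4) (F := F)
  rw [h.adj, hu, hv, show (-v : I8 → F) = (-1 : F) • v from (neg_one_smul F v).symm,
    hf.bilinear.smul_right] at e
  exact (mul_eq_zero.1 (show (2 : F) * Cfsg.sympForm 4 F u v = 0 by linear_combination e)).resolve_left h2

theorem Inv8.half {X : M₈} (h : Inv8 X) (h2 : (2 : F) ≠ 0) (v : I8 → F) :
    ∃ a b, X *ᵥ a = a ∧ X *ᵥ b = -b ∧ a + b = v := by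
  refine ⟨(2 : F)⁻¹ • (v + X *ᵥ v), (2 : F)⁻¹ • (v - X *ᵥ v), ?_, ?_, ?_⟩
  · rw [mulVec_smul, mulVec_add, mulVec_mulVec, h.sq, one_mulVec, add_comm]
  · rw [mulVec_smul, mulVec_sub, mulVec_mulVec, h.sq, one_mulVec, ← smul_neg, neg_sub]
  · rw [← smul_add, add_add_sub_cancel, ← two_smul F, smul_smul, inv_mul_cancel₀ h2, one_smul]

theorem Inv8.nondegenerate {X : M₈} (h : Inv8 X) (h2 : (2 : F) ≠ 0) :
    Cfsg.Geo.IsNondegenerateOn (Cfsg.sympForm 4 F) (plus X) := by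
  intro w hw hw0
  have hf := SmallDim.isSymplecticForm_sympForm (m := 4) (F := F)
  rw [mem_plus] at hw
  refine ⟨?_, ?_⟩
  · obtain ⟨y, hy⟩ := (hf.nondegenerate w hw0).1
    obtain ⟨a, b, ha, hb, rfl⟩ := h.half h2 y
    refine ⟨a, mem_plus.2 ha, fun e => hy ?_⟩
    rw [hf.bilinear.add_left, e, (Symp.eq_zero_comm hf).mp (h.orth h2 hw hb), add_zero]
  · obtain ⟨y, hy⟩ := (hf.nondegenerate w hw0).2
    obtain ⟨a, b, ha, hb, rfl⟩ := h.half h2 y
    refine ⟨a, mem_plus.2 ha, fun e => hy ?_⟩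
    rw [hf.bilinear.add_right, e, h.orth h2 hw hb, add_zero]

theorem Inv8.finrank_plus {X : M₈} (h : Inv8 X) (h2 : (2 : F) ≠ 0) : Module.finrank F (plus X) = 4 := by
  obtain ⟨U, hU⟩ := h.anti
  have hdisj : plus X ⊓ plus (-X) = ⊥ := by
    rw [Submodule.eq_bot_iff]
    intro v hv
    obtain ⟨h1, h3⟩ := Submodule.mem_inf.1 hv
    rw [mem_plus] at h1 h3
    rw [neg_mulVec, h1] at h3
    have e : (2 : F) • v = 0 := by rw [two_smul]; nth_rewrite 1 [← h3]; rw [neg_add_cancel]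
    exact (smul_eq_zero.1 e).resolve_left h2
  have htop : plus X ⊔ plus (-X) = ⊤ := by
    rw [eq_top_iff]
    intro v _
    obtain ⟨a, b, ha, hb, rfl⟩ := h.half h2 v
    exact Submodule.add_mem_sup (mem_plus.2 ha) (mem_plus.2 (by rw [neg_mulVec, hb, neg_neg]))
  have hsum := Submodule.finrank_sup_add_finrank_inf_eq (plus X) (plus (-X))
  rw [hdisj, htop, finrank_top, finrank_bot, Module.finrank_fintype_fun_eq_card] at hsum
  have hle : ∀ Y : M₈, (U : M₈) * Y = -(Y * (U : M₈)) → Module.finrank F (plus Y) ≤ Module.finrank F (plus (-Y)) := by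
    intro Y hY
    rw [← LinearEquiv.finrank_map_eq (apEquiv U) (plus Y)]
    refine Submodule.finrank_mono ?_
    rintro _ ⟨v, hv, rfl⟩
    rw [SetLike.mem_coe, mem_plus] at hv
    rw [mem_plus]
    show (-Y) *ᵥ ((U : M₈) *ᵥ v) = (U : M₈) *ᵥ v
    rw [mulVec_mulVec, Matrix.neg_mul, ← hY, ← mulVec_mulVec, hv]
  have h1 := hle X hU
  have h3 := hle (-X) (by rw [Matrix.mul_neg, Matrix.neg_mul, hU])
  rw [neg_neg] at h3
  simp at hsum
  omega

/-- An isometry carrying the involution to the standard one. -/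
theorem Inv8.exists_conj [Finite F] {X : M₈} (h : Inv8 X) (h2 : (2 : F) ≠ 0) :
    ∃ g : GL I8 F, g ∈ Cfsg.spGL 4 F ∧ (g : M₈) * X = X0 * (g : M₈) := by
  haveI := Fintype.ofFinite F
  have hf := SmallDim.isSymplecticForm_sympForm (m := 4) (F := F)
  have h0 := inv8_X0 (F := F)
  obtain ⟨g, hg, hmap⟩ := Symp.exists_isom_mapsTo hf (h.nondegenerate h2) (h0.nondegenerate h2)
    ((h.finrank_plus h2).trans (h0.finrank_plus h2).symm)
  refine ⟨g, hg, ?_⟩
  have heq : (plus X).map (apEquiv g).toLinearMap = plus X0 :=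
    Submodule.eq_of_le_of_finrank_eq (by rintro _ ⟨a, ha, rfl⟩; exact hmap a ha)
      (by rw [LinearEquiv.finrank_map_eq, h.finrank_plus h2, h0.finrank_plus h2])
  refine Matrix.ext_of_mulVec_single fun j => ?_
  obtain ⟨a, b, ha, hb, hab⟩ := h.half h2 (Pi.single j 1)
  rw [← hab, ← mulVec_mulVec, ← mulVec_mulVec, mulVec_add, ha, hb]
  have ha' : X0 *ᵥ ((g : M₈) *ᵥ a) = (g : M₈) *ᵥ a := mem_plus.1 (hmap a (mem_plus.2 ha))
  have hb' : X0 *ᵥ ((g : M₈) *ᵥ b) = -((g : M₈) *ᵥ b) := by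
    obtain ⟨c, d, hc, hd, hcd⟩ := h0.half h2 ((g : M₈) *ᵥ b)
    suffices hc0 : c = 0 by
      rw [hc0, zero_add] at hcd
      rw [← hcd, hd]
    by_contra hne
    obtain ⟨w, hw, hwc⟩ := ((h0.nondegenerate h2) c (mem_plus.2 hc) hne).2
    have hw' : w ∈ (plus X).map (apEquiv g).toLinearMap := heq ▸ hw
    obtain ⟨x, hx, rfl⟩ := hw'
    apply hwc
    have hxb : Cfsg.sympForm 4 F (ap g x) ((g : M₈) *ᵥ b) = 0 :=
      (mem_isom_iff.mp hg x b).trans (h.orth h2 (mem_plus.1 hx) hb)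
    have hxd : Cfsg.sympForm 4 F (ap g x) d = 0 := h0.orth h2 (mem_plus.1 hw) hd
    rw [← hcd, hf.bilinear.add_right, hxd, add_zero] at hxb
    exact (Symp.eq_zero_comm hf).mp hxb
  rw [mulVec_add, mulVec_add, mulVec_add, ha', hb', mulVec_neg]

end CfsgLib.Geometric.SympEightC6
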