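import Cfsg.Agent.Lib.Geometric.SympEight.C6.Coords
import Cfsg.Agent.Lib.SmallDim.Pauli

/-!
Elements of `Sp_8` normalising a group of signed Pauli matrices, built from members of the group.
-/

set_option autoImplicit false
set_option linter.unusedSectionVars false

namespace CfsgLib.Geometric.SympEightC6

open Matrix CfsgLib.SmallDim

variable {F : Type*} [Field F] [Finite F] {R : Subgroup (GL I8 F)}

local notation "M₈" => Matrix I8 I8 F

/-- The matrices of a group. -/
def InR (R : Subgroup (GL I8 F)) (a : Matrix I8 I8 F) : Prop := ∃ g ∈ R, (g : Matrix I8 I8 F) = a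

theorem InR.mul {a b : M₈} (ha : InR R a) (hb : InR R b) : InR R (a * b) := by
  obtain ⟨g, hg, rfl⟩ := ha
  obtain ⟨h, hh, rfl⟩ := hb
  exact ⟨g * h, mul_mem hg hh, rfl⟩

theorem InR.comm (hR : IsPauli R) {a b : M₈} (ha : InR R a) (hb : InR R b) :
    a * b = b * a ∨ a * b = -(b * a) := by
  obtain ⟨g, hg, rfl⟩ := ha
  obtain ⟨h, hh, rfl⟩ := hb
  exact hR.comm g hg h hh

theorem InR.neg (hR : IsPauli R) {a : M₈} (ha : InR R a) : InR R (-a) := by
  obtain ⟨g, hg, rfl⟩ := ha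
  exact ⟨-1 * g, mul_mem (hR.neg_one_mem (by simp)) hg, by simp⟩

/-- An isometry conjugating the matrices of the group into the group. -/
theorem exists_normalising {G : M₈} (hG : adj8 G * G = 1)
    (hcl : ∀ r, InR R r → InR R (G * r * adj8 G)) :
    ∃ g ∈ Cfsg.Geo.subgroupNormalizer R ⊓ Cfsg.spGL 4 F, (g : M₈) = G := by
  let g : GL I8 F := ⟨G, adj8 G, mul_eq_one_comm.1 hG, hG⟩
  refine ⟨g, ⟨Subgroup.mem_normalizer_fintype fun x hx => ?_, mem_spGL_of_adj8 (g := g) hG⟩, rfl⟩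
  obtain ⟨y, hy, e⟩ := hcl _ ⟨x, hx, rfl⟩
  have : g * x * g⁻¹ = y := Units.ext (by rw [e]; rfl)
  rw [SetLike.mem_coe, this]
  exact hy

theorem refl_sq {a b : M₈} (ha : a * a = 1) (hb : b * b = 1) (hab : a * b = -(b * a)) :
    (a - b) * (a - b) = (2 : F) • (1 : M₈) := by
  rw [sub_mul, mul_sub, mul_sub, ha, hb, hab, two_smul]
  abel

theorem refl_conj (hR : IsPauli R) {a b r : M₈} (ha : InR R a) (hb : InR R b) (hr : InR R r)
    (ha2 : a * a = 1) (hb2 : b * b = 1) (hab : a * b = -(b * a)) :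
    ∃ r', InR R r' ∧ (a - b) * r * (a - b) = (2 : F) • r' := by
  rcases hr.comm hR ha with h1 | h1 <;> rcases hr.comm hR hb with h3 | h3
  · refine ⟨r, hr, ?_⟩
    rw [mul_assoc, show r * (a - b) = (a - b) * r by rw [mul_sub, sub_mul, h1, h3], ← mul_assoc,
      refl_sq ha2 hb2 hab, smul_mul_assoc, one_mul]
  · refine ⟨a * b * r, (ha.mul hb).mul hr, ?_⟩
    rw [mul_assoc, show r * (a - b) = (a + b) * r by rw [mul_sub, add_mul, h1, h3, sub_neg_eq_add],
      ← mul_assoc, show (a - b) * (a + b) = (2 : F) • (a * b) by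
        rw [sub_mul, mul_add, mul_add, ha2, hb2, hab, two_smul]; abel, smul_mul_assoc]
  · refine ⟨-(a * b * r), ((ha.mul hb).mul hr).neg hR, ?_⟩
    rw [mul_assoc, show r * (a - b) = -((a + b) * r) by rw [mul_sub, add_mul, h1, h3, neg_add, sub_eq_add_neg],
      mul_neg, ← mul_assoc, show (a - b) * (a + b) = (2 : F) • (a * b) by
        rw [sub_mul, mul_add, mul_add, ha2, hb2, hab, two_smul]; abel, smul_mul_assoc, smul_neg]
  · refine ⟨-r, hr.neg hR, ?_⟩
    rw [mul_assoc, show r * (a - b) = -((a - b) * r) by rw [mul_sub, sub_mul, h1, h3, neg_sub_neg, neg_sub],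
      mul_neg, ← mul_assoc, refl_sq ha2 hb2 hab, smul_mul_assoc, one_mul, smul_neg]

/-- A product of two reflections. -/
theorem exists_perm (hR : IsPauli R) (h2 : (2 : F) ≠ 0) {a b c d : M₈} (ha : InR R a) (hb : InR R b)
    (hc : InR R c) (hd : InR R d) (ha2 : a * a = 1) (hb2 : b * b = 1) (hc2 : c * c = 1) (hd2 : d * d = 1)
    (hab : a * b = -(b * a)) (hcd : c * d = -(d * c)) (haa : adj8 a = a) (hba : adj8 b = b)
    (hca : adj8 c = c) (hda : adj8 d = d) :
    ∃ g ∈ Cfsg.Geo.subgroupNormalizer R ⊓ Cfsg.spGL 4 F,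
      (g : M₈) = (2 : F)⁻¹ • ((a - b) * (c - d)) := by
  set A := a - b with hA
  set C := c - d with hC
  have eA : adj8 A = A := by rw [hA, adj8_sub, haa, hba]
  have eC : adj8 C = C := by rw [hC, adj8_sub, hca, hda]
  have eG : adj8 ((2 : F)⁻¹ • (A * C)) = (2 : F)⁻¹ • (C * A) := by rw [adj8_smul, adj8_mul, eA, eC]
  refine exists_normalising ?_ fun r hr => ?_
  · rw [eG, smul_mul_assoc, mul_smul_comm, mul_assoc C A, ← mul_assoc A A, hA, refl_sq ha2 hb2 hab,
      smul_mul_assoc, one_mul, mul_smul_comm, hC, refl_sq hc2 hd2 hcd, smul_smul, smul_smul, smul_smul,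
      show (2 : F)⁻¹ * (2 : F)⁻¹ * 2 * 2 = 1 by field_simp, one_smul]
  · obtain ⟨r₁, hr₁, e₁⟩ := refl_conj hR hc hd hr hc2 hd2 hcd
    obtain ⟨r₂, hr₂, e₂⟩ := refl_conj hR ha hb hr₁ ha2 hb2 hab
    refine (show (2 : F)⁻¹ • (A * C) * r * adj8 ((2 : F)⁻¹ • (A * C)) = r₂ from ?_) ▸ hr₂
    rw [eG, smul_mul_assoc, smul_mul_assoc, mul_smul_comm, smul_smul,
      show A * C * r * (C * A) = A * (C * r * C) * A by simp only [mul_assoc], hC, e₁, mul_smul_comm,
      smul_mul_assoc, hA, e₂, smul_smul, smul_smul,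
      show (2 : F)⁻¹ * (2 : F)⁻¹ * 2 * 2 = 1 by field_simp, one_smul]

/-- An element acting on one eigenspace of a commuting involution as a second involution. -/
theorem exists_eichler (hR : IsPauli R) (h2 : (2 : F) ≠ 0) {X a : M₈} (hX : InR R X) (ha : InR R a)
    (hX2 : X * X = 1) (ha2 : a * a = 1) (hXa : a * X = X * a) (hXj : adj8 X = X) (haj : adj8 a = a) :
    ∃ g ∈ Cfsg.Geo.subgroupNormalizer R ⊓ Cfsg.spGL 4 F,
      (g : M₈) = (2 : F)⁻¹ • (1 + X + a - X * a) := by
  set E : M₈ := 1 + X + a - X * a with hEdef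
  have hEj : adj8 E = E := by
    rw [hEdef, adj8_sub, adj8_add, adj8_add, adj8_one, adj8_mul, hXj, haj, hXa]
  have hXXa : X * (X * a) = a := by rw [← mul_assoc, hX2, one_mul]
  have haXa : a * (X * a) = X := by rw [← mul_assoc, hXa, mul_assoc, ha2, mul_one]
  have hXaX : X * a * X = a := by rw [mul_assoc, hXa, hXXa]
  have hXaa : X * a * a = X := by rw [mul_assoc, ha2, mul_one]
  have hXaXa : X * a * (X * a) = 1 := by rw [mul_assoc, haXa, hX2]
  have hE2 : E * E = (4 : F) • (1 : M₈) := by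
    rw [hEdef]
    simp only [add_mul, mul_add, sub_mul, mul_sub, one_mul, mul_one, hX2, ha2, hXa, hXXa, haXa, hXaX,
      hXaa, hXaXa]
    module
  refine exists_normalising ?_ fun r hr => ?_
  · rw [adj8_smul, hEj, smul_mul_assoc, mul_smul_comm, hE2, smul_smul, smul_smul,
      show (2 : F)⁻¹ * (2 : F)⁻¹ * 4 = 1 by field_simp; norm_num, one_smul]
  rw [adj8_smul, hEj, smul_mul_assoc, smul_mul_assoc, mul_smul_comm, smul_smul]
  have h4 : (2 : F)⁻¹ * (2 : F)⁻¹ * 4 = 1 := by field_simp; norm_num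
  have fin : ∀ {E' m : M₈}, InR R (m * r) → r * E = E' * r → E * E' = (4 : F) • m →
      InR R (((2 : F)⁻¹ * (2 : F)⁻¹) • (E * r * E)) := by
    intro E' m hm h1 h3
    rw [mul_assoc, h1, ← mul_assoc, h3, smul_mul_assoc, smul_smul, h4, one_smul]
    exact hm
  rcases hr.comm hR hX with h1 | h1 <;> rcases hr.comm hR ha with h3 | h3
  · refine fin (E' := E) (m := 1) (by rwa [one_mul]) ?_ hE2
    rw [hEdef]
    simp only [add_mul, mul_add, sub_mul, mul_sub, mul_one, one_mul, h1, h3, ← mul_assoc r X a]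
    simp only [mul_assoc, h3]
  · refine fin (E' := 1 + X - a + X * a) (m := X) (hX.mul hr) ?_ ?_
    · rw [hEdef]
      simp only [add_mul, mul_add, sub_mul, mul_sub, mul_one, one_mul, h1, h3, ← mul_assoc r X a]
      simp only [mul_assoc, h3, mul_neg, sub_neg_eq_add]
      abel
    · rw [hEdef]
      simp only [add_mul, mul_add, sub_mul, mul_sub, one_mul, mul_one, hX2, ha2, hXa, hXXa, haXa, hXaX,
        hXaa, hXaXa]
      module
  · refine fin (E' := 1 - X + a + X * a) (m := a) (ha.mul hr) ?_ ?_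
    · rw [hEdef]
      simp only [add_mul, mul_add, sub_mul, mul_sub, mul_one, one_mul, h1, h3, ← mul_assoc r X a, neg_mul]
      simp only [mul_assoc, h3, sub_neg_eq_add]
      abel
    · rw [hEdef]
      simp only [add_mul, mul_add, sub_mul, mul_sub, one_mul, mul_one, hX2, ha2, hXa, hXXa, haXa, hXaX,
        hXaa, hXaXa]
      module
  · refine fin (E' := 1 - X - a - X * a) (m := -(X * a)) (by rw [neg_mul]; exact ((hX.mul ha).mul hr).neg hR)
      ?_ ?_
    · rw [hEdef]
      simp only [add_mul, mul_add, sub_mul, mul_sub, mul_one, one_mul, h1, h3, ← mul_assoc r X a, neg_mul]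
      simp only [mul_assoc, h3, mul_neg, neg_neg]
      abel
    · rw [hEdef]
      simp only [add_mul, mul_add, sub_mul, mul_sub, one_mul, mul_one, hX2, ha2, hXa, hXXa, haXa, hXaX,
        hXaa, hXaXa]
      module

/-- A product of two transvection elements at commuting square roots of `-1`. -/
theorem exists_pair (hR : IsPauli R) (h2 : (2 : F) ≠ 0) {A B : M₈} (hA : InR R A) (hB : InR R B)
    (hA2 : A * A = -1) (hB2 : B * B = -1) (hAB : A * B = B * A) (hAj : adj8 A = -A) (hBj : adj8 B = -B) :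
    ∃ g ∈ Cfsg.Geo.subgroupNormalizer R ⊓ Cfsg.spGL 4 F,
      (g : M₈) = (2 : F)⁻¹ • ((1 + A) * (1 + B)) := by
  have one : ∀ {C : M₈}, InR R C → C * C = -1 → ∀ {r : M₈}, InR R r →
      ∃ r', InR R r' ∧ (1 + C) * r * (1 - C) = (2 : F) • r' := by
    intro C hC hC2 r hr
    rcases hr.comm hR hC with h | h
    · refine ⟨r, hr, ?_⟩
      rw [mul_assoc, show r * (1 - C) = (1 - C) * r by rw [mul_sub, sub_mul, mul_one, one_mul, h],
        ← mul_assoc, show (1 + C) * (1 - C) = (2 : F) • (1 : M₈) by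
          rw [add_mul, mul_sub, mul_sub, one_mul, mul_one, one_mul, hC2, two_smul]; abel,
        smul_mul_assoc, one_mul]
    · refine ⟨C * r, hC.mul hr, ?_⟩
      rw [mul_assoc, show r * (1 - C) = (1 + C) * r by rw [mul_sub, add_mul, mul_one, one_mul, h, sub_neg_eq_add],
        ← mul_assoc, show (1 + C) * (1 + C) = (2 : F) • C by
          rw [add_mul, mul_add, mul_add, one_mul, mul_one, one_mul, hC2, two_smul]; abel,
        smul_mul_assoc]
  have hsq : ∀ {C : M₈}, C * C = -1 → (1 - C) * (1 + C) = (2 : F) • (1 : M₈) := fun {C} hC => by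
    rw [sub_mul, mul_add, mul_add, one_mul, mul_one, one_mul, hC, two_smul]; abel
  have eG : adj8 ((2 : F)⁻¹ • ((1 + A) * (1 + B))) = (2 : F)⁻¹ • ((1 - B) * (1 - A)) := by
    rw [adj8_smul, adj8_mul, adj8_add, adj8_add, adj8_one, hAj, hBj, ← sub_eq_add_neg, ← sub_eq_add_neg]
  refine exists_normalising ?_ fun r hr => ?_
  · rw [eG, smul_mul_assoc, mul_smul_comm, mul_assoc (1 - B), ← mul_assoc (1 - A), hsq hA2, smul_mul_assoc,
      one_mul, mul_smul_comm, hsq hB2, smul_smul, smul_smul, smul_smul,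
      show (2 : F)⁻¹ * (2 : F)⁻¹ * 2 * 2 = 1 by field_simp, one_smul]
  · obtain ⟨r₁, hr₁, e₁⟩ := one hB hB2 hr
    obtain ⟨r₂, hr₂, e₂⟩ := one hA hA2 hr₁
    rw [eG, smul_mul_assoc, smul_mul_assoc, mul_smul_comm, smul_smul,
      show (1 + A) * (1 + B) * r * ((1 - B) * (1 - A)) = (1 + A) * ((1 + B) * r * (1 - B)) * (1 - A) by
        simp only [mul_assoc], e₁, mul_smul_comm, smul_mul_assoc, e₂, smul_smul, smul_smul,
      show (2 : F)⁻¹ * (2 : F)⁻¹ * 2 * 2 = 1 by field_simp, one_smul]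
    exact hr₂

end CfsgLib.Geometric.SympEightC6
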