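import Cfsg.Agent.Lib.Geometric.SympEight.C6.Elements
import Cfsg.Agent.Lib.Geometric.PauliQ.OfGroup
import Cfsg.Agent.Lib.Geometric.PauliQ.Model

/-!
A group of signed Pauli matrices in `Sp_8` over an extension containing a square root of `-1`.
-/

set_option autoImplicit false
set_option linter.unusedSectionVars false

namespace CfsgLib.Geometric.SympEightC6

open Matrix Cfsg.Geo CfsgLib.SmallDim CfsgLib.Geometric.PauliMax

variable {F : Type*} [Field F] [Finite F] {L : Type*} [Field L] [Finite L] [Algebra F L]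

local notation "M₈" => Matrix I8 I8 F

/-- Matrices over the extension. -/
abbrev mp (L : Type*) [Field L] [Algebra F L] (A : Matrix I8 I8 F) : Matrix I8 I8 L :=
  (algebraMap F L).mapMatrix A

/-- Elements over the extension. -/
abbrev toL (L : Type*) [Field L] [Algebra F L] : GL I8 F →* GL I8 L :=
  Units.map ((algebraMap F L).mapMatrix : Matrix I8 I8 F →+* Matrix I8 I8 L).toMonoidHom

theorem mp_inj {A B : M₈} (h : mp L A = mp L B) : A = B :=
  Matrix.map_injective (algebraMap F L).injective h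

theorem coe_toL (g : GL I8 F) : ((toL L g : GL I8 L) : Matrix I8 I8 L) = mp L (g : M₈) := rfl

theorem mp_smul (c : F) (A : M₈) : mp L (c • A) = algebraMap F L c • mp L A := by
  ext a b; simp [mp]

theorem mp_J : mp L (Matrix.J (Fin 4) F) = Matrix.J (Fin 4) L := by
  ext a b
  rcases a with a | a <;> rcases b with b | b <;> simp [mp, Matrix.J, Matrix.one_apply, apply_ite]

theorem toL_sim {g : GL I8 F} (h : g ∈ Cfsg.spGL 4 F) :
    (mp L (g : M₈))ᵀ * Matrix.J (Fin 4) L * mp L (g : M₈) = Matrix.J (Fin 4) L := by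
  have e := congrArg (fun A => mp L A) (mem_spGL_iff.1 h)
  simp only [mp, map_mul, RingHom.mapMatrix_apply, Matrix.transpose_map] at e ⊢
  rw [show (Matrix.J (Fin 4) F).map (algebraMap F L) = Matrix.J (Fin 4) L from mp_J] at e
  exact e

/-- The lifted system of a group. -/
structure Lift (R : Subgroup (GL I8 F)) (L : Type*) [Field L] [Finite L] [Algebra F L] where
  Y : PauliQ.Sys I8 L
  J_eq : Y.J = Matrix.J (Fin 4) L
  rep : ∀ v, ∃ (g : GL I8 F) (μ : L), g ∈ R ∧ μ * μ = sgn L (Y.q v) ∧ mp L (g : M₈) = μ • Y.S.P v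
  cover : ∀ g ∈ R, ∃ (v : V6) (c : L), mp L (g : M₈) = c • Y.S.P v

theorem exists_lift {i : L} (hi : i * i = -1) (h2 : (2 : L) ≠ 0) {R : Subgroup (GL I8 F)}
    (hR : IsPauli R) (hRf : R ≤ Cfsg.spGL 4 F) (hminus : IsOfMinusType 3 R) : Nonempty (Lift R L) := by
  classical
  have hi4 : i ^ 4 = 1 := by linear_combination (i * i - 1) * hi
  let RL : Subgroup (GL I8 L) :=
    { carrier := {x | ∃ g ∈ R, ∃ c : L, c ^ 4 = 1 ∧ (x : Matrix I8 I8 L) = c • mp L (g : M₈)}
      one_mem' := ⟨1, one_mem _, 1, one_pow 4, by rw [one_smul]; exact (map_one _).symm⟩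
      mul_mem' := by
        rintro x y ⟨g, hg, c, hc, hx⟩ ⟨k, hk, d, hd, hy⟩
        refine ⟨g * k, mul_mem hg hk, c * d, by rw [mul_pow, hc, hd, one_mul], ?_⟩
        rw [Units.val_mul, hx, hy, smul_mul_assoc, mul_smul_comm, smul_smul]
        congr 1
        exact (map_mul _ _ _).symm
      inv_mem' := by
        rintro x ⟨g, hg, c, hc, hx⟩
        have hc0 : c ≠ 0 := fun h => by simp [h] at hc
        refine ⟨g⁻¹, inv_mem hg, c⁻¹, by rw [inv_pow, hc, inv_one], Units.inv_eq_of_mul_eq_one_right ?_⟩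
        rw [hx, smul_mul_assoc, mul_smul_comm, smul_smul, mul_inv_cancel₀ hc0, one_smul]
        simp only [mp]
        rw [← map_mul, Units.mul_inv, map_one] }
  have hsq : ∀ g ∈ R, mp L (g : M₈) * mp L (g : M₈) = 1 ∨ mp L (g : M₈) * mp L (g : M₈) = -1 := by
    intro g hg
    rcases hR.sq g hg with h | h
    · left; simp only [mp]; rw [← map_mul, h, map_one]
    · right; simp only [mp]; rw [← map_mul, h, map_neg, map_one]
  have hPL : IsPauli RL := by
    refine ⟨?_, ?_, ?_⟩
    · rintro x ⟨g, hg, c, hc, hx⟩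
      rw [hx, smul_mul_assoc, mul_smul_comm, smul_smul]
      rcases mul_self_eq_one_iff.1 (show (c * c) * (c * c) = 1 by linear_combination hc) with h | h <;>
        rcases hsq g hg with e | e <;> rw [h, e]
      · left; rw [one_smul]
      · right; rw [one_smul]
      · right; rw [neg_one_smul]
      · left; rw [neg_one_smul, neg_neg]
    · rintro x ⟨g, hg, c, -, hx⟩ y ⟨k, hk, d, -, hy⟩
      rw [hx, hy]
      simp only [smul_mul_assoc, mul_smul_comm, smul_smul, mul_comm d c]
      rcases hR.comm g hg k hk with h | h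
      · left; simp only [mp]; rw [← map_mul, ← map_mul, h]
      · right; simp only [mp]; rw [← map_mul, ← map_mul, h, map_neg, smul_neg]
    · rw [eq_top_iff]
      intro A _
      have hstd : ∀ a b, (Matrix.single a b (1 : L) : Matrix I8 I8 L) ∈ Submodule.span L (matrixSet RL) := by
        intro a b
        have h : ∀ B : M₈, mp L B ∈ Submodule.span L (matrixSet RL) := by
          intro B
          have hB : B ∈ Submodule.span F (matrixSet R) := hR.span ▸ Submodule.mem_top
          induction hB using Submodule.span_induction with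
          | mem y hy =>
            obtain ⟨g, hg, rfl⟩ := hy
            exact Submodule.subset_span ⟨toL L g, ⟨g, hg, 1, one_pow 4, (one_smul _ _).symm⟩, rfl⟩
          | zero => simp only [mp, map_zero]; exact Submodule.zero_mem _
          | add x y _ _ hx hy => simp only [mp, map_add]; exact Submodule.add_mem _ hx hy
          | smul c x _ hx => rw [mp_smul]; exact Submodule.smul_mem _ _ hx
        have := h (Matrix.single a b 1)
        simpa [mp] using this
      rw [matrix_eq_sum_single A]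
      refine Submodule.sum_mem _ fun a _ => Submodule.sum_mem _ fun b _ => ?_
      have := Submodule.smul_mem (Submodule.span L (matrixSet RL)) (A a b) (hstd a b)
      rwa [Matrix.smul_single, smul_eq_mul, mul_one] at this
  have hi0 : i ≠ 0 := fun h => by simp [h] at hi
  let ie : GL I8 L := ⟨i • 1, i⁻¹ • 1,
    by rw [smul_mul_assoc, one_mul, smul_smul, mul_inv_cancel₀ hi0, one_smul],
    by rw [smul_mul_assoc, one_mul, smul_smul, inv_mul_cancel₀ hi0, one_smul]⟩
  have hie : ie ∈ RL := ⟨1, one_mem _, i, hi4, by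
    show i • (1 : Matrix I8 I8 L) = _
    simp [mp]⟩
  obtain ⟨S, hmem, hcov⟩ := PauliQ.exists_pauli_reps (R := RL) 3 (by simp) h2 hPL hi (ie := ⟨ie, hie⟩) rfl
  -- multipliers
  have hrep : ∀ v, ∃ (g : GL I8 F) (c : L), g ∈ R ∧ c ^ 4 = 1 ∧ S.P v = c • mp L (g : M₈) := by
    intro v
    obtain ⟨x, ⟨g, hg, c, hc, hx⟩, e⟩ := hmem v
    exact ⟨g, c, hg, hc, e ▸ hx⟩
  choose g c hg hc hgc using hrep
  let q : V6 → ZMod 2 := fun v => if c v * c v = 1 then 0 else 1
  have hm : (-1 : L) ≠ 1 := fun h => h2 (by linear_combination -h)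
  have hq : ∀ v, c v * c v = sgn L (q v) := fun v => by
    simp only [q]
    split
    · next h => rw [sgn_zero, h]
    · next h =>
      rw [sgn_one]
      exact (mul_self_eq_one_iff.1 (show (c v * c v) * (c v * c v) = 1 by linear_combination hc v)).resolve_left h
  have hsim : ∀ v, (S.P v)ᵀ * Matrix.J (Fin 4) L * S.P v = sgn L (q v) • Matrix.J (Fin 4) L := by
    intro v
    rw [hgc, transpose_smul, smul_mul_assoc, smul_mul_assoc, mul_smul_comm, smul_smul, toL_sim (hRf (hg v)), hq]
  have hJ : IsUnit (Matrix.J (Fin 4) L) :=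
    ⟨⟨Matrix.J (Fin 4) L, -Matrix.J (Fin 4) L, by rw [mul_neg, Matrix.J_squared, neg_neg],
      by rw [neg_mul, Matrix.J_squared, neg_neg]⟩, rfl⟩
  have hadd : ∀ v w, q (v + w) = q v + q w + S.B v w := by
    intro v w
    haveI : Nonempty I8 := ⟨Sum.inl 0⟩
    obtain ⟨k, -, hk⟩ := S.P_add_coeff v w
    have h1 := hsim (v + w)
    have e : (S.P v * S.P w)ᵀ * Matrix.J (Fin 4) L * (S.P v * S.P w) =
        (sgn L (q v) * sgn L (q w)) • Matrix.J (Fin 4) L := by
      rw [transpose_mul, show (S.P w)ᵀ * (S.P v)ᵀ * Matrix.J (Fin 4) L * (S.P v * S.P w) =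
        (S.P w)ᵀ * ((S.P v)ᵀ * Matrix.J (Fin 4) L * S.P v) * S.P w by simp only [mul_assoc], hsim,
        mul_smul_comm, smul_mul_assoc, hsim, smul_smul]
    rw [hk, transpose_smul, smul_mul_assoc, smul_mul_assoc, mul_smul_comm, smul_smul, e, smul_smul] at h1
    have h2' := S.sq (v + w)
    rw [hk, smul_mul_assoc, mul_smul_comm, smul_smul] at h2'
    have e2 : S.P v * S.P w * (S.P v * S.P w) = sgn L (S.B w v) • (1 : Matrix I8 I8 L) := by
      calc _ = S.P v * (S.P w * S.P v) * S.P w := by simp only [mul_assoc]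
        _ = _ := by rw [S.comm w v, mul_smul_comm, smul_mul_assoc, ← mul_assoc, S.sq, one_mul, S.sq]
    rw [e2, smul_smul] at h2'
    have h3 : k * k * sgn L (S.B v w) = 1 := by
      rw [← S.B_swap]
      exact smul_left_injective L (one_ne_zero (α := Matrix I8 I8 L)) (by simpa using h2')
    apply sgn_inj h2
    rw [PauliMax.sgn_add, PauliMax.sgn_add, ← smul_left_injective L hJ.ne_zero h1]
    linear_combination (sgn L (q v) * sgn L (q w) * sgn L (S.B v w)) * h3 -
      (k * k * (sgn L (q v) * sgn L (q w))) * sgn_sq (F := L) (S.B v w)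
  have hnoTS : ∀ W : Submodule (ZMod 2) V6, (∀ w ∈ W, q w = 0) → Module.finrank (ZMod 2) W ≤ 2 := by
    intro W hW
    haveI : Nonempty I8 := ⟨Sum.inl 0⟩
    by_contra hlt
    have hBW : ∀ a ∈ W, ∀ b ∈ W, S.B a b = 0 := fun a ha b hb => by
      have := hadd a b
      rw [hW _ (W.add_mem ha hb), hW a ha, hW b hb, zero_add, zero_add] at this
      exact this.symm
    let A : Subgroup R :=
      { carrier := {x | ∃ w ∈ W, ∃ s : L, s * s = 1 ∧ mp L ((x : GL I8 F) : M₈) = s • S.P w}
        one_mem' := ⟨0, W.zero_mem, 1, one_mul 1, by rw [S.zero, one_smul]; exact map_one _⟩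
        mul_mem' := by
          rintro x y ⟨a, ha, s, hs, hx⟩ ⟨b, hb, t, ht, hy⟩
          obtain ⟨k, hk0, hk⟩ := S.P_add_coeff a b
          have hk1 : k * k = 1 := by
            have h := S.sq (a + b)
            rw [hk, smul_mul_assoc, mul_smul_comm, smul_smul] at h
            have hcm : Commute (S.P b) (S.P a) := by
              show _ = _
              rw [S.comm b a, hBW b hb a ha, sgn_zero, one_smul]
            rw [hcm.mul_mul_mul_comm, S.sq, S.sq, one_mul] at h
            exact smul_left_injective L (one_ne_zero (α := Matrix I8 I8 L)) (by simpa using h)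
          refine ⟨a + b, W.add_mem ha hb, s * t * k, by linear_combination (t * t * (k * k)) * hs + (k * k) * ht + hk1, ?_⟩
          show mp L (((x : GL I8 F) * (y : GL I8 F) : GL I8 F) : M₈) = _
          simp only [mp, Units.val_mul, map_mul] at hx hy ⊢
          rw [hx, hy, smul_mul_assoc, mul_smul_comm, smul_smul, hk, smul_smul, mul_assoc (s * t), hk1, mul_one]
        inv_mem' := by
          rintro x ⟨a, ha, s, hs, hx⟩
          refine ⟨a, ha, s, hs, ?_⟩
          have e : mp L ((x : GL I8 F) : M₈) * (s • S.P a) = 1 := by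
            rw [hx, smul_mul_assoc, mul_smul_comm, smul_smul, hs, S.sq, one_smul]
          calc mp L ((((x⁻¹ : R) : GL I8 F)) : M₈)
              = mp L ((((x⁻¹ : R) : GL I8 F)) : M₈) * (mp L ((x : GL I8 F) : M₈) * (s • S.P a)) := by
                rw [e, mul_one]
            _ = _ := by
                simp only [mp]
                rw [← mul_assoc, ← map_mul]
                simp }
    have hA1 : IsMulCommutative A := ⟨⟨fun x y => by
      obtain ⟨a, ha, s, -, hx⟩ := x.2
      obtain ⟨b, hb, t, -, hy⟩ := y.2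
      apply Subtype.ext
      apply Subtype.ext
      apply Units.ext
      apply mp_inj (L := L)
      simp only [mp, Subgroup.coe_mul, Units.val_mul, map_mul] at hx hy ⊢
      rw [hx, hy, smul_mul_assoc, mul_smul_comm, smul_mul_assoc, mul_smul_comm, S.comm a b, hBW a ha b hb,
        sgn_zero, one_smul, smul_smul, smul_smul, mul_comm]⟩⟩
    have hA2 : ∀ x ∈ A, x * x = 1 := by
      rintro x ⟨a, ha, s, hs, hx⟩
      apply Subtype.ext
      apply Units.ext
      apply mp_inj (L := L)
      simp only [mp, Subgroup.coe_mul, Units.val_mul, map_mul] at hx ⊢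
      rw [hx, smul_mul_assoc, mul_smul_comm, smul_smul, hs, S.sq, one_smul]
      simp
    have hcard := hminus A hA1 hA2
    have hel : ∀ w ∈ W, ∀ t : Fin 2, ∃ x : A, mp L ((((x : R) : GL I8 F)) : M₈) =
        (if t = 0 then (1 : L) else -1) • S.P w := by
      intro w hw t
      have hcw : c w * c w = 1 := by rw [hq, hW w hw, sgn_zero]
      have hneg : (-1 : GL I8 F) ∈ R := hR.neg_one_mem (by simp)
      have hmem' : ∀ (x : R) (s : L), s * s = 1 → mp L ((x : GL I8 F) : M₈) = s • S.P w → x ∈ A :=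
        fun x s hs hx => ⟨w, hw, s, hs, hx⟩
      have hP : mp L ((g w : GL I8 F) : M₈) = (c w) • S.P w := by
        rw [hgc, smul_smul, hcw, one_smul]
      have hN : mp L (((-1 * g w : GL I8 F)) : M₈) = (-(c w)) • S.P w := by
        rw [neg_smul, ← hP]
        simp only [mp, Units.val_mul, Units.val_neg, Units.val_one, neg_mul, one_mul, map_neg]
      rcases mul_self_eq_one_iff.1 hcw with h | h <;> fin_cases t
      · exact ⟨⟨⟨g w, hg w⟩, hmem' _ _ hcw hP⟩, by simp [hP, h]⟩
      · exact ⟨⟨⟨-1 * g w, mul_mem hneg (hg w)⟩, hmem' _ _ (by rw [neg_mul_neg, hcw]) hN⟩,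
          show mp L (((-1 * g w : GL I8 F)) : M₈) = _ by rw [hN, h]; simp⟩
      · exact ⟨⟨⟨-1 * g w, mul_mem hneg (hg w)⟩, hmem' _ _ (by rw [neg_mul_neg, hcw]) hN⟩,
          show mp L (((-1 * g w : GL I8 F)) : M₈) = _ by rw [hN, h]; simp⟩
      · exact ⟨⟨⟨g w, hg w⟩, hmem' _ _ hcw hP⟩, by simp [hP, h]⟩
    choose el hel using hel
    have hinj : Function.Injective (fun z : W × Fin 2 => el z.1 z.1.2 z.2) := by
      rintro ⟨⟨a, ha⟩, t⟩ ⟨⟨b, hb⟩, t'⟩ e
      have h := (hel a ha t).symm.trans ((congrArg (fun x : A => mp L ((((x : R) : GL I8 F)) : M₈)) e).trans (hel b hb t'))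
      have hne : ∀ u : Fin 2, (if u = 0 then (1 : L) else -1) ≠ 0 := fun u => by split <;> simp
      have hab : a = b := S.li.eq_of_smul_apply_eq_smul_apply _ _ a b (hne t) h
      subst hab
      have := S.smul_P_inj a h
      fin_cases t <;> fin_cases t' <;> first | rfl | exact absurd (by simpa using this) hm |
        exact absurd (by simpa using this.symm) hm
    have h8 : 2 ^ 3 ≤ Nat.card W := by
      rw [Module.natCard_eq_pow_finrank (K := ZMod 2), Nat.card_zmod]
      exact Nat.pow_le_pow_right (by norm_num) (by omega)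
    have := Nat.card_le_card_of_injective _ hinj
    rw [Nat.card_prod, Nat.card_fin] at this
    omega
  refine ⟨⟨⟨S, Matrix.J (Fin 4) L, q, i, hi, h2, hJ, hsim, hnoTS⟩, rfl, fun v => ?_, ?_⟩⟩
  · refine ⟨g v, (c v)⁻¹, hg v, ?_, ?_⟩
    · show (c v)⁻¹ * (c v)⁻¹ = sgn L (q v)
      rw [← mul_inv, hq]
      rcases sgn_cases (F := L) (q v) with h | h <;> simp [h]
    · show _ = (c v)⁻¹ • S.P v
      have hc0 : c v ≠ 0 := fun h => by have := hc v; simp [h] at this
      rw [hgc, smul_smul, inv_mul_cancel₀ hc0, one_smul]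
  · intro x hx
    obtain ⟨v, k, hv⟩ := hcov (toL L x) ⟨x, hx, 1, one_pow 4, (one_smul _ _).symm⟩
    exact ⟨v, k, hv⟩

namespace Lift

variable {R : Subgroup (GL I8 F)} (D : Lift R L)

/-- A singular label is carried by a member of the group. -/
theorem exists_singular (hR : IsPauli R) {v : V6} (hv : D.Y.q v = 0) :
    ∃ g ∈ R, mp L (g : M₈) = D.Y.S.P v := by
  obtain ⟨g, μ, hg, hμ, e⟩ := D.rep v
  rw [hv, sgn_zero] at hμ
  rcases mul_self_eq_one_iff.1 hμ with rfl | rfl
  · exact ⟨g, hg, by rw [e, one_smul]⟩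
  · refine ⟨-1 * g, mul_mem (hR.neg_one_mem (by simp)) hg, ?_⟩
    simp only [mp, Units.val_mul, Units.val_neg, Units.val_one, neg_mul, one_mul, map_neg] at e ⊢
    rw [e, neg_one_smul, neg_neg]

/-- A label of odd value is carried by a member of the group times `i`. -/
theorem exists_odd (hR : IsPauli R) {v : V6} (hv : D.Y.q v = 1) :
    ∃ g ∈ R, mp L (g : M₈) = D.Y.i • D.Y.S.P v := by
  obtain ⟨g, μ, hg, hμ, e⟩ := D.rep v
  rw [hv, sgn_one] at hμ
  rcases mul_eq_zero.1 (show (μ - D.Y.i) * (μ + D.Y.i) = 0 by linear_combination hμ - D.Y.hi) with h | h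
  · exact ⟨g, hg, by rw [e, sub_eq_zero.1 h]⟩
  · refine ⟨-1 * g, mul_mem (hR.neg_one_mem (by simp)) hg, ?_⟩
    simp only [mp, Units.val_mul, Units.val_neg, Units.val_one, neg_mul, one_mul, map_neg] at e ⊢
    rw [e, eq_neg_of_add_eq_zero_left h, neg_smul, neg_neg]

theorem mem_norm_of_normalizer {g : GL I8 F} (hg : g ∈ subgroupNormalizer R) : toL L g ∈ D.Y.S.norm := by
  refine D.Y.S.mem_norm fun v => ?_
  obtain ⟨x, μ, hx, hμ, e⟩ := D.rep v
  have hμ0 : μ ≠ 0 := fun h => by rw [h, mul_zero] at hμ; exact sgn_ne_zero _ hμ.symm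
  obtain ⟨w, k, hk⟩ := D.cover _ ((Subgroup.mem_normalizer_iff.1 hg x).1 hx)
  refine ⟨w, μ⁻¹ * k, ?_⟩
  rw [coe_toL, ← smul_smul, ← smul_mul_assoc, ← hk]
  have e' : D.Y.S.P v = μ⁻¹ • mp L (x : M₈) := by rw [e, smul_smul, inv_mul_cancel₀ hμ0, one_smul]
  rw [e', mul_smul_comm]
  congr 1
  simp only [mp, ← map_mul, Units.val_mul, Units.inv_mul_cancel_right]

theorem mem_normalizer_of_norm (hR : IsPauli R) (hRf : R ≤ Cfsg.spGL 4 F) {g : GL I8 F}
    (hgs : g ∈ Cfsg.spGL 4 F) (hg : toL L g ∈ D.Y.S.norm) : g ∈ subgroupNormalizer R := by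
  refine Subgroup.mem_normalizer_fintype fun x hx => ?_
  obtain ⟨v, c, hv⟩ := D.cover x hx
  obtain ⟨w, d, hw⟩ := hg.1 v
  obtain ⟨y, μ, hy, hμ, hyw⟩ := D.rep w
  have hμ0 : μ ≠ 0 := fun h => by rw [h, mul_zero] at hμ; exact sgn_ne_zero _ hμ.symm
  set k := c * d * μ⁻¹
  have e : mp L ((g * x * g⁻¹ : GL I8 F) : M₈) = k • mp L (y : M₈) := by
    simp only [mp, Units.val_mul, map_mul] at hv ⊢
    rw [hv, mul_smul_comm, smul_mul_assoc]
    change c • (((toL L g : GL I8 L) : Matrix I8 I8 L) * D.Y.S.P v * (((toL L g)⁻¹ : GL I8 L) : Matrix I8 I8 L)) = _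
    rw [hw, smul_mul_assoc, Units.mul_inv_cancel_right, smul_smul, show (algebraMap F L).mapMatrix (y : M₈) =
      μ • D.Y.S.P w from hyw, smul_smul]
    congr 1
    simp only [k]
    field_simp
  have hkk : k * k = 1 := by
    have hs := toL_sim (L := L) (mul_mem (mul_mem hgs (hRf hx)) (inv_mem hgs))
    rw [e, transpose_smul, smul_mul_assoc, smul_mul_assoc, mul_smul_comm, smul_smul, toL_sim (hRf hy)] at hs
    have hJ : IsUnit (Matrix.J (Fin 4) L) := D.J_eq ▸ D.Y.hJ
    exact smul_left_injective L hJ.ne_zero (by simpa using hs)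
  rcases mul_self_eq_one_iff.1 hkk with h | h <;> rw [h] at e
  · rw [one_smul] at e
    rw [SetLike.mem_coe, Units.ext (mp_inj e)]
    exact hy
  · have e' : mp L ((g * x * g⁻¹ : GL I8 F) : M₈) = mp L ((-1 * y : GL I8 F) : M₈) := by
      rw [e, neg_one_smul]
      simp only [mp, Units.val_mul, Units.val_neg, Units.val_one, neg_mul, one_mul, map_neg]
    rw [SetLike.mem_coe, Units.ext (mp_inj e')]
    exact mul_mem (hR.neg_one_mem (by simp)) hy

end Lift

end CfsgLib.Geometric.SympEightC6
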